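import Mathlib
import Cfsg.Agent.Lib.Helper32.OPG.Defs
import Cfsg.Agent.Lib.Helper64.OParM.Defs

/-!
# Project OMG (S2415): `PΩ⁻_{2m}(q)`, `m ≥ 4`, is generated by two elements — interface (helper8)

The minus twin of helper32's OPG (S2414).  `V = MI k → F = H ⊥ P`, `k = m - 1 ≥ 3`, `H` the
hyperbolic part (coordinates `Sum.inl`, a copy of `Vec k F` of project Siegel), `P` the anisotropic
plane (coordinates `Sum.inr`).  Notation of project Siegel / OPG for `H`: `Vec k F`, `B`, `Iso k F`,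
`mat`, `IsSiegel`, `E i`, `Fv i`, `L k F : SL_k →* Iso k F`, `HasX / HasY / HasZ`.

Generators: `x₁ = φ (L g₁) * ν`, `x₂ = φ (L g₂)`, `φ` the embedding `O(H) → O(V)`, `g₁, g₂`
generators of `SL_k(F)`, `ν` an isometry of odd prime order `r ∣ q² + 1` supported on
`W = ⟨e_a, f_a⟩ ⊥ P` and irreducible there.
One closed `Prop` per package; paper proofs in the plan note (topic S2415).
-/

set_option autoImplicit false
open scoped Matrix

namespace Cfsg.Agent.Lib.Helper8.OMG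

open Cfsg.Agent.Lib.Helper31.Siegel Cfsg.Agent.Lib.Helper32.OPG
open Cfsg.Agent.Lib.Helper64.OParM (MI Aniso)

universe u

/-- The vectors of `F^{2k+2}`. -/
abbrev VecM (k : ℕ) (F : Type u) : Type u := MI k → F

/-- The minus form. -/
abbrev QM (k : ℕ) (F : Type u) [Field F] (a b : F) : VecM k F → F := Cfsg.quadFormMinus k F a b

/-- Its polar form `B(u, v) = Q(u + v) - Q(u) - Q(v)`. -/
def BM {k : ℕ} {F : Type u} [Field F] (a b : F) (u v : VecM k F) : F :=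
  QM k F a b (u + v) - QM k F a b u - QM k F a b v

/-- The isometry group of the minus form, a subgroup of `GL`. -/
abbrev IsoM (k : ℕ) (F : Type u) [Field F] (a b : F) :
    Subgroup (Matrix.GeneralLinearGroup (MI k) F) :=
  Cfsg.isometryGroup F (Cfsg.quadFormMinus k F a b)

/-- The matrix of an isometry. -/
abbrev matM {k : ℕ} {F : Type u} [Field F] {a b : F} (σ : ↥(IsoM k F a b)) :
    Matrix (MI k) (MI k) F :=
  ((σ : Matrix.GeneralLinearGroup (MI k) F) : Matrix (MI k) (MI k) F)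

/-- `σ` is the Eichler (Siegel) transformation `ρ_{e,y}` with centre `e` (singular) and direction
`y ⊥ e`: `v ↦ v + B(v, y) e - B(v, e) y - Q(y) B(v, e) e`. -/
def IsEich {k : ℕ} {F : Type u} [Field F] {a b : F} (e y : VecM k F) (σ : ↥(IsoM k F a b)) :
    Prop :=
  ∀ v : VecM k F, matM σ *ᵥ v =
    v + BM a b v y • e - BM a b v e • y - (QM k F a b y * BM a b v e) • e

/-- `σ` is the long root element `x ↦ x + c B(u, x) v - c B(v, x) u` (the `siegelMatrix` of the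
Prelude). -/
def IsLong {k : ℕ} {F : Type u} [Field F] {a b : F} (u v : VecM k F) (c : F)
    (σ : ↥(IsoM k F a b)) : Prop :=
  ∀ x : VecM k F, matM σ *ᵥ x = x + (c * BM a b u x) • v - (c * BM a b v x) • u

/-- The inclusion of the hyperbolic part `H`. -/
def inH {k : ℕ} {F : Type u} [Field F] (p : Vec k F) : VecM k F := Sum.elim p 0

/-- The inclusion of the plane `P`. -/
def inP {k : ℕ} {F : Type u} [Field F] (z : Fin 2 → F) : VecM k F := Sum.elim 0 z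

/-- `y` lies in `W_a = ⟨e_a, f_a⟩ ⊥ P`. -/
def InW {k : ℕ} {F : Type u} [Field F] (a₀ : Fin k) (y : VecM k F) : Prop :=
  ∀ i : Fin k, i ≠ a₀ → y (Sum.inl (Sum.inl i)) = 0 ∧ y (Sum.inl (Sum.inr i)) = 0

/-- `y` lies in the orthogonal complement of `W_a` (the span of the `e_i, f_i`, `i ≠ a`). -/
def InWc {k : ℕ} {F : Type u} [Field F] (a₀ : Fin k) (y : VecM k F) : Prop :=
  y (Sum.inl (Sum.inl a₀)) = 0 ∧ y (Sum.inl (Sum.inr a₀)) = 0 ∧ ∀ j : Fin 2, y (Sum.inr j) = 0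

/-- `φ` is the embedding `O(H) → O(V)`, `g ↦ diag(g, 1)`. -/
def IsEmbH {k : ℕ} {F : Type u} [Field F] {a b : F} (φ : ↥(Iso k F) →* ↥(IsoM k F a b)) : Prop :=
  ∀ (σ : ↥(Iso k F)) (v : VecM k F),
    matM (φ σ) *ᵥ v = Sum.elim (mat σ *ᵥ (fun i => v (Sum.inl i))) (fun j => v (Sum.inr j))

/-- The standing properties of the mixing element `ν` (at the index `a₀`): it fixes `W_a^⊥`
pointwise, stabilises `W_a`, and is irreducible on `W_a` (stated for additive subgroups containing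
an `F`-line). -/
def IsMix {k : ℕ} {F : Type u} [Field F] {a b : F} (a₀ : Fin k) (ν : ↥(IsoM k F a b)) : Prop :=
  (∀ v : VecM k F, InWc a₀ v → matM ν *ᵥ v = v) ∧
  (∀ v : VecM k F, InW a₀ v → InW a₀ (matM ν *ᵥ v)) ∧
  (∀ S : AddSubgroup (VecM k F), (∀ y ∈ S, InW a₀ y) → (∀ y ∈ S, matM ν *ᵥ y ∈ S) →
    (∃ y₀ : VecM k F, y₀ ≠ 0 ∧ ∀ c : F, c • y₀ ∈ S) → ∀ y : VecM k F, InW a₀ y → y ∈ S)

/-- `K` contains the short root elements `ρ_{e_i, w}`, `ρ_{f_i, w}`, `w ∈ P`, for the indices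
`i` with `p i`. -/
def HasShort {k : ℕ} {F : Type u} [Field F] {a b : F} (p : Fin k → Prop)
    (K : Subgroup ↥(IsoM k F a b)) : Prop :=
  ∀ (i : Fin k), p i → ∀ (z : Fin 2 → F) (σ : ↥(IsoM k F a b)),
    (IsEich (inH (E i)) (inP z) σ → σ ∈ K) ∧ (IsEich (inH (Fv i)) (inP z) σ → σ ∈ K)

/-- Every singular pair can be moved into `H` by `K`. -/
def MovesIntoH {k : ℕ} {F : Type u} [Field F] {a b : F} (K : Subgroup ↥(IsoM k F a b)) : Prop :=
  ∀ u v : VecM k F, QM k F a b u = 0 → QM k F a b v = 0 → BM a b u v = 0 → u ≠ 0 →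
    ∃ g ∈ K, (∀ j : Fin 2, (matM g *ᵥ u) (Sum.inr j) = 0) ∧
      (∀ j : Fin 2, (matM g *ᵥ v) (Sum.inr j) = 0)

/-- `K` contains every long root element of `V`. -/
def HasLong {k : ℕ} {F : Type u} [Field F] {a b : F} (K : Subgroup ↥(IsoM k F a b)) : Prop :=
  ∀ (u v : VecM k F) (c : F) (σ : ↥(IsoM k F a b)), QM k F a b u = 0 → QM k F a b v = 0 →
    BM a b u v = 0 → IsLong u v c σ → σ ∈ K

/-! ## Packages -/

/-- [EMBH] the embedding `O(H) → O(V)`. -/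
def PkgEmbH : Prop :=
  ∀ (k : ℕ) (F : Type u) [Field F] (a b : F), ∃ φ : ↥(Iso k F) →* ↥(IsoM k F a b), IsEmbH φ

/-- [EICHEX] existence of Eichler transformations (all characteristics). -/
def PkgEichEx : Prop :=
  ∀ (k : ℕ) (F : Type u) [Field F] (a b : F) (e y : VecM k F), QM k F a b e = 0 →
    BM a b e y = 0 → ∃ σ : ↥(IsoM k F a b), IsEich e y σ

/-- [EICHALG] calculus of Eichler transformations with a fixed centre: product, inverse,
conjugation, uniqueness. -/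
def PkgEichAlg : Prop :=
  ∀ (k : ℕ) (F : Type u) [Field F] (a b : F) (e y y' : VecM k F) (σ σ' τ : ↥(IsoM k F a b)),
    QM k F a b e = 0 → BM a b e y = 0 → BM a b e y' = 0 → IsEich e y σ → IsEich e y' σ' →
    IsEich e (y + y') (σ * σ') ∧ IsEich e (-y) σ⁻¹ ∧
      IsEich (matM τ *ᵥ e) (matM τ *ᵥ y) (τ * σ * τ⁻¹) ∧
      (∀ σ₂ : ↥(IsoM k F a b), IsEich e y σ₂ → σ₂ = σ)

/-- [NU4] an isometry of odd prime order `r ∣ q² + 1` of the minus 4-space, acting irreducibly. -/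
def PkgNu4 : Prop :=
  ∀ (F : Type u) [Field F] [Fintype F] (a b : F), Aniso a b →
    ∃ (ν : ↥(IsoM 1 F a b)) (r : ℕ), r.Prime ∧ r ≠ 2 ∧ r ∣ Fintype.card F ^ 2 + 1 ∧ ν ^ r = 1 ∧
      ∀ U : Submodule F (VecM 1 F), (∀ u ∈ U, matM ν *ᵥ u ∈ U) → U = ⊥ ∨ U = ⊤

/-- [NUHAT] the mixing element at the index `a₀`. -/
def PkgNuHat : Prop :=
  ∀ (F : Type u) [Field F] [Fintype F] (k : ℕ) (a b : F), Aniso a b → ∀ a₀ : Fin k,
    ∃ (ν : ↥(IsoM k F a b)) (r : ℕ), r.Prime ∧ r ≠ 2 ∧ r ∣ Fintype.card F ^ 2 + 1 ∧ ν ^ r = 1 ∧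
      IsMix a₀ ν

/-- [COMMNU] an isometry supported on `W_a` commutes with an isometry fixing `W_a` pointwise. -/
def PkgCommNu : Prop :=
  ∀ (k : ℕ) (F : Type u) [Field F] (a b : F) (a₀ : Fin k) (ν τ : ↥(IsoM k F a b)),
    (∀ v : VecM k F, InWc a₀ v → matM ν *ᵥ v = v) →
    (∀ v : VecM k F, InW a₀ v → InW a₀ (matM ν *ᵥ v)) →
    (∀ v : VecM k F, InW a₀ v → matM τ *ᵥ v = v) →
    (∀ v : VecM k F, InWc a₀ v → InWc a₀ (matM τ *ᵥ v)) →
    ν * τ = τ * ν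

/-- [LFIX] if row `a₀` and column `a₀` of `g` are standard, the Levi element of `g` fixes `W_a`
pointwise and stabilises `W_a^⊥`. -/
def PkgLFix : Prop :=
  ∀ (k : ℕ) (F : Type u) [Field F] (a b : F) (φ : ↥(Iso k F) →* ↥(IsoM k F a b)), IsEmbH φ →
    ∀ (g : Matrix.SpecialLinearGroup (Fin k) F) (a₀ : Fin k),
    (∀ j, (g : Matrix (Fin k) (Fin k) F) a₀ j = (1 : Matrix (Fin k) (Fin k) F) a₀ j) →
    (∀ j, (g : Matrix (Fin k) (Fin k) F) j a₀ = (1 : Matrix (Fin k) (Fin k) F) j a₀) →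
    (∀ v : VecM k F, InW a₀ v → matM (φ (L k F g)) *ᵥ v = v) ∧
    (∀ v : VecM k F, InWc a₀ v → InWc a₀ (matM (φ (L k F g)) *ᵥ v))

/-- [GENS3] two generators of `SL_k(F)`, `k ≥ 3`, the first of order dividing `q (q - 1)` and with
a standard row and column. -/
def PkgGens3 : Prop :=
  ∀ (F : Type u) [Field F] [Fintype F] (k : ℕ), 3 ≤ k →
    ∃ (g₁ g₂ : Matrix.SpecialLinearGroup (Fin k) F) (a₀ : Fin k),
      Subgroup.closure ({g₁, g₂} : Set (Matrix.SpecialLinearGroup (Fin k) F)) = ⊤ ∧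
      g₁ ^ (Fintype.card F * (Fintype.card F - 1)) = 1 ∧
      (∀ j, (g₁ : Matrix (Fin k) (Fin k) F) a₀ j = (1 : Matrix (Fin k) (Fin k) F) a₀ j) ∧
      (∀ j, (g₁ : Matrix (Fin k) (Fin k) F) j a₀ = (1 : Matrix (Fin k) (Fin k) F) j a₀)

/-- [LMOM] the Levi subgroup lies in `Ω`. -/
def PkgLMOm : Prop :=
  ∀ (F : Type u) [Field F] [Fintype F] (k : ℕ) (a b : F), Aniso a b → 3 ≤ k →
    ∀ (φ : ↥(Iso k F) →* ↥(IsoM k F a b)), IsEmbH φ →
    ∀ g : Matrix.SpecialLinearGroup (Fin k) F,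
      φ (L k F g) ∈ Cfsg.Omega F (Cfsg.quadFormMinus k F a b)

/-- [WFILL] with the Levi subgroup and the mixing element, `K` contains every `ρ_{e_i, y}` and
`ρ_{f_i, y}`, `i ≠ a₀`, `y ∈ W_a`. -/
def PkgWFill : Prop :=
  ∀ (F : Type u) [Field F] [Fintype F] (k : ℕ) (a b : F), Aniso a b → 3 ≤ k →
    ∀ (φ : ↥(Iso k F) →* ↥(IsoM k F a b)), IsEmbH φ →
    ∀ (K : Subgroup ↥(IsoM k F a b)),
      (∀ g : Matrix.SpecialLinearGroup (Fin k) F, φ (L k F g) ∈ K) →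
    ∀ (a₀ : Fin k) (ν : ↥(IsoM k F a b)), ν ∈ K → IsMix a₀ ν →
    ∀ (i : Fin k), i ≠ a₀ → ∀ (y : VecM k F), InW a₀ y → ∀ σ : ↥(IsoM k F a b),
      (IsEich (inH (E i)) y σ → σ ∈ K) ∧ (IsEich (inH (Fv i)) y σ → σ ∈ K)

/-- [SHORTA] the short root elements at the index `a₀` from those at the other indices. -/
def PkgShortA : Prop :=
  ∀ (F : Type u) [Field F] [Fintype F] (k : ℕ) (a b : F), Aniso a b → 3 ≤ k →
    ∀ (φ : ↥(Iso k F) →* ↥(IsoM k F a b)), IsEmbH φ →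
    ∀ (K : Subgroup ↥(IsoM k F a b)),
      (∀ g : Matrix.SpecialLinearGroup (Fin k) F, φ (L k F g) ∈ K) →
    ∀ (a₀ : Fin k), HasShort (fun i => i ≠ a₀) K → HasShort (fun _ => True) K

/-- [PLUSIN] the pull-back of `K` to `O(H)` contains all standard root groups of `H`. -/
def PkgPlusIn : Prop :=
  ∀ (F : Type u) [Field F] [Fintype F] (k : ℕ) (a b : F), Aniso a b → 3 ≤ k →
    ∀ (φ : ↥(Iso k F) →* ↥(IsoM k F a b)), IsEmbH φ →
    ∀ (K : Subgroup ↥(IsoM k F a b)),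
      (∀ g : Matrix.SpecialLinearGroup (Fin k) F, φ (L k F g) ∈ K) →
    ∀ (i₁ j₁ : Fin k), i₁ ≠ j₁ →
      (∀ (c : F) (σ : ↥(IsoM k F a b)), IsEich (inH (E i₁)) (c • inH (E j₁)) σ → σ ∈ K) →
      (∀ (c : F) (σ : ↥(IsoM k F a b)), IsEich (inH (Fv i₁)) (c • inH (Fv j₁)) σ → σ ∈ K) →
      HasX Set.univ (K.comap φ) ∧ HasY Set.univ (K.comap φ) ∧ HasZ Set.univ (K.comap φ)

/-- [TRANSM] every singular pair of `V` is moved into `H` by `K`. -/
def PkgTransM : Prop :=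
  ∀ (F : Type u) [Field F] [Fintype F] (k : ℕ) (a b : F), Aniso a b → 3 ≤ k →
    ∀ (φ : ↥(Iso k F) →* ↥(IsoM k F a b)), IsEmbH φ →
    ∀ (K : Subgroup ↥(IsoM k F a b)),
      HasX Set.univ (K.comap φ) → HasY Set.univ (K.comap φ) → HasZ Set.univ (K.comap φ) →
      HasShort (fun _ => True) K → MovesIntoH K

/-- [LONGM] `K` contains every long root element of `V`. -/
def PkgLongM : Prop :=
  ∀ (F : Type u) [Field F] [Fintype F] (k : ℕ) (a b : F), Aniso a b → 3 ≤ k →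
    ∀ (φ : ↥(Iso k F) →* ↥(IsoM k F a b)), IsEmbH φ →
    ∀ (K : Subgroup ↥(IsoM k F a b)),
      HasX Set.univ (K.comap φ) → HasY Set.univ (K.comap φ) → HasZ Set.univ (K.comap φ) →
      MovesIntoH K → HasLong K

/-- [BRIDGEM] `Ω⁻` is generated by the long root elements. -/
def PkgBridgeM : Prop :=
  ∀ (F : Type u) [Field F] [Fintype F] (k : ℕ) (a b : F), Aniso a b → 3 ≤ k →
    ∀ (K : Subgroup ↥(IsoM k F a b)), HasLong K →
      Cfsg.Omega F (Cfsg.quadFormMinus k F a b) ≤ K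

/-- [FINALM] from two generators of `Ω` to two generators of `PΩ`. -/
def PkgFinalM : Prop :=
  ∀ (F : Type u) [Field F] (k : ℕ) (a b : F) (x₁ x₂ : ↥(IsoM k F a b)),
    x₁ ∈ Cfsg.Omega F (Cfsg.quadFormMinus k F a b) →
    x₂ ∈ Cfsg.Omega F (Cfsg.quadFormMinus k F a b) →
    Cfsg.Omega F (Cfsg.quadFormMinus k F a b) ≤ Subgroup.closure {x₁, x₂} →
    ∃ g h : Cfsg.POmega F (Cfsg.quadFormMinus k F a b),
      Subgroup.closure ({g, h} : Set (Cfsg.POmega F (Cfsg.quadFormMinus k F a b))) = ⊤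

end Cfsg.Agent.Lib.Helper8.OMG
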