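import Mathlib
import Cfsg.Agent.Lib.Helper8.OMG.Defs
import Cfsg.Agent.Lib.Helper44.OElp.OddOmega
import Cfsg.Agent.Lib.Helper46.OTSM.MinusNdF

/-!
# Project OMG (S2415): the assembly (helper8)
-/

set_option autoImplicit false
open scoped Matrix

namespace Cfsg.Agent.Lib.Helper8.OMG

open Cfsg.Agent.Lib.Helper31.Siegel Cfsg.Agent.Lib.Helper32.OPG
open Cfsg.Agent.Lib.Helper64.OParM (MI Aniso)

universe u

/-- The generation core: a subgroup containing the Levi subgroup and a mixing element contains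
`Ω⁻`. -/
theorem pkgGenM_of (hW : PkgWFill.{u}) (hS : PkgShortA.{u}) (hP : PkgPlusIn.{u})
    (hT : PkgTransM.{u}) (hLg : PkgLongM.{u}) (hB : PkgBridgeM.{u})
    (F : Type u) [Field F] [Fintype F] (k : ℕ) (a b : F) (hab : Aniso a b) (hk : 3 ≤ k)
    (φ : ↥(Iso k F) →* ↥(IsoM k F a b)) (hφ : IsEmbH φ)
    (K : Subgroup ↥(IsoM k F a b))
    (hL : ∀ g : Matrix.SpecialLinearGroup (Fin k) F, φ (L k F g) ∈ K)
    (a₀ : Fin k) (ν : ↥(IsoM k F a b)) (hν : ν ∈ K) (hmix : IsMix a₀ ν) :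
    Cfsg.Omega F (Cfsg.quadFormMinus k F a b) ≤ K := by
  classical
  have hfill := hW F k a b hab hk φ hφ K hL a₀ ν hν hmix
  obtain ⟨i₁, hi₁⟩ : ∃ i₁ : Fin k, i₁ ≠ a₀ := by
    by_cases h0 : a₀ = ⟨0, by omega⟩
    · refine ⟨⟨1, by omega⟩, ?_⟩
      rw [h0]
      intro h
      have := congrArg Fin.val h
      simp at this
    · exact ⟨⟨0, by omega⟩, fun h => h0 h.symm⟩
  have hWE : ∀ c : F, InW a₀ (c • inH (E a₀ : Vec k F)) := by
    intro c i hi
    constructor <;> simp [inH, hi]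
  have hWF : ∀ c : F, InW a₀ (c • inH (Fv a₀ : Vec k F)) := by
    intro c i hi
    constructor <;> simp [inH, hi]
  have hWP : ∀ z : Fin 2 → F, InW a₀ (inP z : VecM k F) := by
    intro z i hi
    constructor <;> simp [inP]
  obtain ⟨hX, hY, hZ⟩ := hP F k a b hab hk φ hφ K hL i₁ a₀ hi₁
    (fun c σ h => (hfill i₁ hi₁ _ (hWE c) σ).1 h)
    (fun c σ h => (hfill i₁ hi₁ _ (hWF c) σ).2 h)
  have hsh : HasShort (fun i => i ≠ a₀) K := fun i hi z σ => hfill i hi _ (hWP z) σ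
  have hsh' := hS F k a b hab hk φ hφ K hL a₀ hsh
  have hmov := hT F k a b hab hk φ hφ K hX hY hZ hsh'
  have hlong := hLg F k a b hab hk φ hφ K hX hY hZ hmov
  exact hB F k a b hab hk K hlong

/-- An odd prime divisor of `q ^ 2 + 1` is prime to `q (q - 1)`. -/
theorem coprime_of_dvd {q r : ℕ} (hq : 1 ≤ q) (hr : r.Prime) (hr2 : r ≠ 2) (h : r ∣ q ^ 2 + 1) :
    Nat.Coprime r (q * (q - 1)) := by
  rw [Nat.Prime.coprime_iff_not_dvd hr]
  intro hd
  rcases (Nat.Prime.dvd_mul hr).mp hd with h1 | h1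
  · have h2 : r ∣ q ^ 2 := dvd_pow h1 (by norm_num)
    have h3 : r ∣ 1 := (Nat.dvd_add_right h2).mp h
    exact hr.one_lt.ne' (Nat.dvd_one.mp h3)
  · obtain ⟨t, rfl⟩ : ∃ t, q = t + 1 := ⟨q - 1, by omega⟩
    have e : (t + 1) ^ 2 + 1 = (t + 1 - 1) * (t + 2) + 2 := by
      rw [Nat.add_sub_cancel]
      ring
    rw [e] at h
    have h3 : r ∣ 2 := (Nat.dvd_add_right (dvd_mul_of_dvd_left h1 _)).mp h
    have h4 := (Nat.prime_dvd_prime_iff_eq hr Nat.prime_two).mp h3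
    exact hr2 h4

/-- **S2415**, from the packages. -/
theorem main_of (hEmb : PkgEmbH.{u}) (hNu : PkgNuHat.{u}) (hComm : PkgCommNu.{u})
    (hFix : PkgLFix.{u}) (hGens : PkgGens3.{u}) (hLM : PkgLMOm.{u}) (hW : PkgWFill.{u})
    (hS : PkgShortA.{u}) (hP : PkgPlusIn.{u}) (hT : PkgTransM.{u}) (hLg : PkgLongM.{u})
    (hB : PkgBridgeM.{u}) (hFin : PkgFinalM.{u})
    (F : Type u) [Field F] [Fintype F] (m : ℕ) (hm : 4 ≤ m) (a b : F)
    (hab : ∀ z₁ z₂ : F, z₁ ^ 2 + a * z₁ * z₂ + b * z₂ ^ 2 = 0 → z₁ = 0 ∧ z₂ = 0) :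
    ∃ g h : Cfsg.POmega F (Cfsg.quadFormMinus (m - 1) F a b),
      Subgroup.closure ({g, h} : Set (Cfsg.POmega F (Cfsg.quadFormMinus (m - 1) F a b))) = ⊤ := by
  classical
  have hk : 3 ≤ m - 1 := by omega
  have hab' : Aniso a b := hab
  obtain ⟨k, hkk⟩ : ∃ k, k = m - 1 := ⟨_, rfl⟩
  rw [← hkk] at hk ⊢
  obtain ⟨φ, hφ⟩ := hEmb k F a b
  obtain ⟨g₁, g₂, a₀, hgen, hg₁, hrow, hcol⟩ := hGens F k hk
  obtain ⟨ν, r, hr, hr2, hrq, hνr, hmix⟩ := hNu F k a b hab' a₀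
  have hq1 : 1 ≤ Fintype.card F := Fintype.card_pos
  have hcop : Nat.Coprime r (Fintype.card F * (Fintype.card F - 1)) :=
    coprime_of_dvd hq1 hr hr2 hrq
  -- `ν ∈ Ω` (odd order)
  have hordν : orderOf ν ∣ r := orderOf_dvd_of_pow_eq_one hνr
  have hνΩ : ν ∈ Cfsg.Omega F (Cfsg.quadFormMinus k F a b) := by
    have hodd : Odd (orderOf (ν : Matrix.GeneralLinearGroup (MI k) F)) := by
      rw [Subgroup.orderOf_coe]
      rcases (Nat.dvd_prime hr).mp hordν with h1 | h1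
      · rw [h1]
        exact odd_one
      · rw [h1]
        exact hr.odd_of_ne_two hr2
    have hnd := Cfsg.Agent.Lib.Helper46.OTSM.pkgMinusNdF F k a b hab'
    have h3 := Cfsg.Agent.Lib.Helper44.OElp.pkgOddOmegaE F (MI k) _ hnd
      (by
        intro _
        right
        simp only [Fintype.card_sum, Fintype.card_fin]
        omega)
      (ν : Matrix.GeneralLinearGroup (MI k) F) ν.2 hodd
    obtain ⟨ω, hω, hωeq⟩ := h3
    have e : ω = ν := Subtype.ext hωeq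
    rw [← e]
    exact hω
  -- `ν` commutes with the Levi element of `g₁`
  obtain ⟨hfixW, hfixWc⟩ := hFix k F a b φ hφ g₁ a₀ hrow hcol
  have hcomm : ν * φ (L k F g₁) = φ (L k F g₁) * ν :=
    hComm k F a b a₀ ν (φ (L k F g₁)) hmix.1 hmix.2.1 hfixW hfixWc
  have hcm : Commute (φ (L k F g₁)) ν := hcomm.symm
  -- the generators
  obtain ⟨x₁, hx₁⟩ : ∃ x₁ : ↥(IsoM k F a b), x₁ = φ (L k F g₁) * ν := ⟨_, rfl⟩
  obtain ⟨x₂, hx₂⟩ : ∃ x₂ : ↥(IsoM k F a b), x₂ = φ (L k F g₂) := ⟨_, rfl⟩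
  have hx₁Ω : x₁ ∈ Cfsg.Omega F (Cfsg.quadFormMinus k F a b) := by
    rw [hx₁]
    exact mul_mem (hLM F k a b hab' hk φ hφ g₁) hνΩ
  have hx₂Ω : x₂ ∈ Cfsg.Omega F (Cfsg.quadFormMinus k F a b) := by
    rw [hx₂]
    exact hLM F k a b hab' hk φ hφ g₂
  refine hFin F k a b x₁ x₂ hx₁Ω hx₂Ω ?_
  obtain ⟨K, hK⟩ : ∃ K : Subgroup ↥(IsoM k F a b),
      K = Subgroup.closure ({x₁, x₂} : Set ↥(IsoM k F a b)) := ⟨_, rfl⟩
  rw [← hK]
  have hx₁K : x₁ ∈ K := by
    rw [hK]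
    exact Subgroup.subset_closure (by simp)
  have hx₂K : x₂ ∈ K := by
    rw [hK]
    exact Subgroup.subset_closure (by simp)
  -- the coprime-order trick
  have hℓA : φ (L k F g₁) ^ (Fintype.card F * (Fintype.card F - 1)) = 1 := by
    rw [← map_pow, ← map_pow, hg₁, map_one, map_one]
  have hpowA : x₁ ^ (Fintype.card F * (Fintype.card F - 1)) =
      ν ^ (Fintype.card F * (Fintype.card F - 1)) := by
    rw [hx₁, hcm.mul_pow, hℓA, one_mul]
  have hpowr : x₁ ^ r = φ (L k F g₁) ^ r := by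
    rw [hx₁, hcm.mul_pow, hνr, mul_one]
  have hνK : ν ∈ K := by
    have hc : (Fintype.card F * (Fintype.card F - 1)).Coprime (orderOf ν) :=
      (Nat.Coprime.coprime_dvd_right hordν hcop.symm)
    obtain ⟨s, hs⟩ := exists_pow_eq_self_of_coprime hc
    rw [← hs, ← hpowA]
    exact K.pow_mem (K.pow_mem hx₁K _) _
  have hℓK : φ (L k F g₁) ∈ K := by
    have hc : r.Coprime (orderOf (φ (L k F g₁))) :=
      Nat.Coprime.coprime_dvd_right (orderOf_dvd_of_pow_eq_one hℓA) hcop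
    obtain ⟨s, hs⟩ := exists_pow_eq_self_of_coprime hc
    rw [← hs, ← hpowr]
    exact K.pow_mem (K.pow_mem hx₁K _) _
  have hLK : ∀ g : Matrix.SpecialLinearGroup (Fin k) F, φ (L k F g) ∈ K := by
    have hle : Subgroup.closure ({g₁, g₂} : Set (Matrix.SpecialLinearGroup (Fin k) F)) ≤
        K.comap (φ.comp (L k F)) := by
      rw [Subgroup.closure_le]
      intro g hg
      rcases hg with rfl | rfl
      · exact hℓK
      · show φ (L k F g) ∈ K
        rw [← hx₂]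
        exact hx₂K
    rw [hgen] at hle
    intro g
    exact hle (Subgroup.mem_top g)
  exact pkgGenM_of hW hS hP hT hLg hB F k a b hab' hk φ hφ K hLK a₀ ν hνK hmix

end Cfsg.Agent.Lib.Helper8.OMG
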